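import Mathlib

/-!
Dimension counts for eigenspaces of linear maps of order dividing `r` and for commuting translates.
-/

set_option autoImplicit false

open Module

namespace Cfsg.Agent.H60.EigenDecomp

variable {F V : Type*} [Field F] [AddCommGroup V] [Module F V] [FiniteDimensional F V]

theorem finrank_sup_le {ι : Type*} (s : Finset ι) (p : ι → Submodule F V) :
    finrank F (s.sup p : Submodule F V) ≤ ∑ i ∈ s, finrank F (p i) := by
  classical
  induction s using Finset.induction with
  | empty => simp
  | @insert a s has ih =>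
    rw [Finset.sup_insert, Finset.sum_insert has]
    have := Submodule.finrank_sup_add_finrank_inf_eq (p a) (s.sup p)
    omega

theorem sum_finrank_le {ι : Type*} (s : Finset ι) (p : ι → Submodule F V) (hp : iSupIndep p)
    (K : Submodule F V) (hK : ∀ i ∈ s, p i ≤ K) :
    ∑ i ∈ s, finrank F (p i) ≤ finrank F K := by
  classical
  have key : ∑ i ∈ s, finrank F (p i) ≤ finrank F (s.sup p : Submodule F V) := by
    clear hK
    induction s using Finset.induction with
    | empty => simp
    | @insert a s has ih =>
      rw [Finset.sup_insert, Finset.sum_insert has]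
      have h := Submodule.finrank_sup_add_finrank_inf_eq (p a) (s.sup p)
      have hd : Disjoint (p a) (s.sup p) := (hp a).mono_right
        (Finset.sup_le fun j hj => le_iSup₂_of_le j (show j ≠ a from fun e => has (e ▸ hj)) le_rfl)
      rw [hd.eq_bot, finrank_bot] at h
      omega
  exact key.trans (Submodule.finrank_mono (Finset.sup_le hK))

theorem sum_eig_le (f : End F V) (s : Finset F) (K : Submodule F V) :
    ∑ μ ∈ s, finrank F (K ⊓ f.eigenspace μ : Submodule F V) ≤ finrank F K :=
  sum_finrank_le s _ ((Module.End.eigenspaces_iSupIndep f).mono fun _ => inf_le_right) K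
    fun _ _ => inf_le_left

/-- A subspace invariant under `f`, on which `f ^ r = 1`, splits into the eigenspaces of the `r`-th roots
of unity. -/
theorem finrank_eq_sum (f : End F V) {r : ℕ} {ζ : F} (hζ : IsPrimitiveRoot ζ r) (hr : 0 < r)
    (K : Submodule F V) (hK : ∀ v ∈ K, f v ∈ K) (hf : ∀ v ∈ K, (f ^ r) v = v) :
    finrank F K = ∑ j ∈ Finset.range r, finrank F (K ⊓ f.eigenspace (ζ ^ j) : Submodule F V) := by
  classical
  haveI : NeZero r := ⟨hr.ne'⟩
  have hrF : (r : F) ≠ 0 := (hζ.neZero').out
  have hζ0 : ζ ≠ 0 := hζ.ne_zero hr.ne'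
  refine le_antisymm (le_trans (Submodule.finrank_mono ?_)
    (finrank_sup_le (Finset.range r) fun j => K ⊓ f.eigenspace (ζ ^ j))) ?_
  · intro v hv
    have hiter : ∀ i : ℕ, (f ^ i) v ∈ K := by
      intro i
      induction i with
      | zero => simpa using hv
      | succ i ih => rw [pow_succ', Module.End.mul_apply]; exact hK _ ih
    let φ : ℕ → ℕ → V := fun j i => ((ζ⁻¹) ^ j) ^ i • (f ^ i) v
    let π : ℕ → V := fun j => (r : F)⁻¹ • ∑ i ∈ Finset.range r, φ j i
    have hπ : ∀ j, π j ∈ K ⊓ f.eigenspace (ζ ^ j) := by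
      intro j
      refine Submodule.mem_inf.2 ⟨K.smul_mem _ (K.sum_mem fun i _ => K.smul_mem _ (hiter i)), ?_⟩
      rw [Module.End.mem_eigenspace_iff]
      have hstep : ∀ i, f (φ j i) = ζ ^ j • φ j (i + 1) := by
        intro i
        simp only [φ, map_smul, smul_smul]
        rw [show f ((f ^ i) v) = (f ^ (i + 1)) v by rw [pow_succ', Module.End.mul_apply],
          pow_succ' ((ζ⁻¹) ^ j) i, ← mul_assoc, ← mul_pow, mul_inv_cancel₀ hζ0, one_pow, one_mul]
      have hper : φ j r = φ j 0 := by
        simp only [φ, pow_zero, one_smul, Module.End.one_apply, hf v hv]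
        rw [← pow_mul, mul_comm, pow_mul, inv_pow, hζ.pow_eq_one, inv_one, one_pow, one_smul]
      have hshift : ∑ i ∈ Finset.range r, φ j (i + 1) = ∑ i ∈ Finset.range r, φ j i := by
        have a := Finset.sum_range_succ (φ j) r
        rw [Finset.sum_range_succ' (φ j) r, hper] at a
        exact add_right_cancel a
      simp only [π, map_smul, map_sum, hstep]
      rw [← Finset.smul_sum, hshift, smul_comm]
    have hsum : ∑ j ∈ Finset.range r, π j = v := by
      simp only [π, ← Finset.smul_sum]
      rw [Finset.sum_comm]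
      simp only [φ, ← Finset.sum_smul]
      rw [Finset.sum_eq_single_of_mem 0 (Finset.mem_range.2 hr)]
      · simp only [pow_zero, Finset.sum_const, Finset.card_range, nsmul_eq_mul, mul_one,
          Module.End.one_apply, smul_smul, inv_mul_cancel₀ hrF, one_smul]
      · intro i hi hi0
        have hcomm : ∀ j : ℕ, ((ζ⁻¹) ^ j) ^ i = ((ζ⁻¹) ^ i) ^ j := fun j => by
          rw [← pow_mul, ← pow_mul, mul_comm]
        simp only [hcomm]
        have h1 : (ζ⁻¹) ^ i ≠ 1 := fun h => hζ.pow_ne_one_of_pos_of_lt hi0 (Finset.mem_range.1 hi)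
          (by rwa [inv_pow, inv_eq_one] at h)
        rw [geom_sum_eq h1, ← pow_mul, mul_comm, pow_mul, inv_pow, hζ.pow_eq_one, inv_one, one_pow,
          sub_self, zero_div, zero_smul]
    rw [← hsum]
    exact Submodule.sum_mem _ fun j hj => Finset.le_sup (f := fun j => K ⊓ f.eigenspace (ζ ^ j)) hj (hπ j)
  · have hinj : Set.InjOn (fun j => ζ ^ j) (Finset.range r) := fun a ha b hb h =>
      hζ.pow_inj (Finset.mem_range.1 ha) (Finset.mem_range.1 hb) h
    have := sum_eig_le f ((Finset.range r).image fun j => ζ ^ j) K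
    rwa [Finset.sum_image hinj] at this

theorem finrank_le_of_maps {f : End F V} (hf : Function.Injective f) {A B : Submodule F V}
    (h : ∀ v ∈ A, f v ∈ B) : finrank F A ≤ finrank F B := by
  rw [(Submodule.equivMapOfInjective f hf A).finrank_eq]
  exact Submodule.finrank_mono (Submodule.map_le_iff_le_comap.2 h)

theorem two_mul_finrank_le {f : End F V} (hf : Function.Injective f) {A K : Submodule F V}
    (hA : A ≤ K) (hfA : ∀ v ∈ A, f v ∈ K) :
    2 * finrank F A ≤ finrank F K + finrank F (A ⊓ A.map f : Submodule F V) := by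
  have h := Submodule.finrank_sup_add_finrank_inf_eq A (A.map f)
  rw [← (Submodule.equivMapOfInjective f hf A).finrank_eq] at h
  have := Submodule.finrank_mono (sup_le hA (Submodule.map_le_iff_le_comap.2 hfA))
  omega

end Cfsg.Agent.H60.EigenDecomp
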