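import Mathlib

/-!
Alternating bimultiplicative pairings with an automorphism of odd order, all of whose commutator orbits
are totally isotropic.
-/

set_option autoImplicit false

namespace Cfsg.Agent.H60.Pairing

variable {H A : Type*} [Group H] [AddCommGroup A] (e : H → H → A) (σ : MulAut H)
variable (hl : ∀ a b w, e (a * b) w = e a w + e b w) (hr : ∀ a b w, e w (a * b) = e w a + e w b)

include hl in
theorem inv_left (a w : H) : e a⁻¹ w = - e a w := by
  have h1 : e 1 w = 0 := by
    have := hl 1 1 w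
    rw [one_mul] at this
    exact left_eq_add.1 this
  have := hl a⁻¹ a w
  rw [inv_mul_cancel, h1] at this
  exact eq_neg_of_add_eq_zero_left this.symm

include hr in
theorem inv_right (a w : H) : e w a⁻¹ = - e w a := by
  have h1 : e w 1 = 0 := by
    have := hr 1 1 w
    rw [one_mul] at this
    exact left_eq_add.1 this
  have := hr a⁻¹ a w
  rw [inv_mul_cancel, h1] at this
  exact eq_neg_of_add_eq_zero_left this.symm

variable (halt : ∀ a, e a a = 0) (hinv : ∀ a b, e (σ a) (σ b) = e a b)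

include hl hr halt in
theorem swap (a b : H) : e a b = - e b a := by
  have := halt (a * b)
  rw [hl, hr, hr, halt, halt, zero_add, add_zero] at this
  exact eq_neg_of_add_eq_zero_left this

theorem pow_succ_apply (k : ℕ) (a : H) : (σ ^ (k + 1)) a = σ ((σ ^ k) a) := by
  rw [pow_succ', MulAut.mul_apply]

variable (hB : ∀ x (i : ℕ), e ((σ ^ i) (σ x * x⁻¹)) (σ x * x⁻¹) = 0)

include hl hr halt hinv hB in
theorem orbit (x : H) (k : ℕ) : e ((σ ^ k) x) x = k • e (σ x) x := by
  have rec' : ∀ m : ℕ, e ((σ ^ (m + 2)) x) x = 2 • e ((σ ^ (m + 1)) x) x - e ((σ ^ m) x) x := by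
    intro m
    have h1 : e ((σ ^ (m + 2)) x) (σ x) = e ((σ ^ (m + 1)) x) x := by
      rw [pow_succ_apply σ (m + 1)]; exact hinv _ _
    have h2 : e ((σ ^ (m + 1)) x) (σ x) = e ((σ ^ m) x) x := by
      rw [pow_succ_apply σ m]; exact hinv _ _
    have h := hB x (m + 1)
    rw [map_mul, map_inv, hl, inv_left e hl, hr, hr, inv_right e hr, inv_right e hr] at h
    rw [show (σ ^ (m + 1)) (σ x) = (σ ^ (m + 2)) x by rw [pow_succ σ (m + 1), MulAut.mul_apply]] at h
    rw [h1, h2] at h
    rw [two_nsmul]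
    linear_combination (norm := abel) -h
  have h : ∀ k : ℕ, e ((σ ^ k) x) x = k • e (σ x) x ∧ e ((σ ^ (k + 1)) x) x = (k + 1) • e (σ x) x := by
    intro k
    induction k with
    | zero => simp [halt]
    | succ m ih =>
      refine ⟨ih.2, ?_⟩
      rw [rec' m, ih.1, ih.2]
      simp only [add_nsmul, two_nsmul, one_nsmul]
      abel
  exact (h k).1

include hl hr halt hinv hB in
theorem polar (x w : H) (k : ℕ) :
    e ((σ ^ k) x) w + e ((σ ^ k) w) x = k • (e (σ x) w + e (σ w) x) := by
  have h1 := orbit e σ hl hr halt hinv hB (x * w) k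
  rw [map_mul, map_mul, hl, hr, hr, hl, hr, hr, orbit e σ hl hr halt hinv hB x k,
    orbit e σ hl hr halt hinv hB w k] at h1
  simp only [nsmul_add] at h1 ⊢
  linear_combination (norm := abel) h1

include hl hr halt hinv hB in
theorem main {ϖ r : ℕ} (hϖ : ϖ.Prime) (hodd : Odd ϖ) (hr' : r.Prime)
    (hper : ∀ a, (σ ^ ϖ) a = a) (hexp : ∀ a b, r • e a b = 0) (hnt : ∃ a b, e (σ a) b ≠ e a b) :
    ϖ = r ∧ ∃ x, e (σ x * x⁻¹) x ≠ 0 ∧
      e (σ (σ x * x⁻¹) * (σ x * x⁻¹)⁻¹) x = 0 ∧
      e (σ (σ x * x⁻¹) * (σ x * x⁻¹)⁻¹) (σ x * x⁻¹) = 0 ∧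
      ∀ w, e (σ (σ (σ x * x⁻¹) * (σ x * x⁻¹)⁻¹)) w = e (σ (σ x * x⁻¹) * (σ x * x⁻¹)⁻¹) w := by
  obtain ⟨m, hm⟩ := hodd
  -- an element with nonzero first pairing
  obtain ⟨x, hx⟩ : ∃ x, e (σ x) x ≠ 0 := by
    by_contra h
    push Not at h
    have h2 : ∀ x u, e (σ (σ x)) u = e x u := by
      intro x u
      obtain ⟨w, rfl⟩ := σ.surjective u
      have := polar e σ hl hr halt hinv hB x w 1
      have h3 := h (x * w)
      rw [map_mul, hl, hr, hr, h, h, zero_add, add_zero] at h3
      rw [hinv, swap e hl hr halt x (σ w)]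
      exact eq_neg_of_add_eq_zero_left h3
    have h4 : ∀ (k : ℕ) x u, e ((σ ^ (2 * k)) x) u = e x u := by
      intro k
      induction k with
      | zero => simp
      | succ k ih =>
        intro x u
        rw [show 2 * (k + 1) = 2 * k + 1 + 1 from rfl, pow_succ_apply, pow_succ_apply, h2, ih]
    obtain ⟨a, b, hab⟩ := hnt
    apply hab
    have h5 : e b (σ a) = e b a := by
      conv_lhs => rw [← hper b, hm, pow_succ_apply, hinv, h4]
    rw [swap e hl hr halt (σ a) b, swap e hl hr halt a b, h5]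
  have hpr : ϖ = r := by
    by_contra hne
    apply hx
    have h1 : ϖ • e (σ x) x = 0 := by
      rw [← orbit e σ hl hr halt hinv hB x ϖ, hper, halt]
    have hd : addOrderOf (e (σ x) x) ∣ Nat.gcd ϖ r :=
      Nat.dvd_gcd (addOrderOf_dvd_of_nsmul_eq_zero h1) (addOrderOf_dvd_of_nsmul_eq_zero (hexp _ _))
    rw [(Nat.coprime_primes hϖ hr').2 hne, Nat.dvd_one] at hd
    exact AddMonoid.addOrderOf_eq_one_iff.1 hd
  refine ⟨hpr, x, ?_, ?_, ?_, ?_⟩
  · rw [hl, inv_left e hl, halt, neg_zero, add_zero]; exact hx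
  · have h2 := orbit e σ hl hr halt hinv hB x 2
    rw [pow_two, MulAut.mul_apply, two_nsmul] at h2
    rw [map_mul, map_inv, hl, hl, inv_left e hl, inv_left e hl, hl, inv_left e hl, halt, h2]
    abel
  · rw [hl, inv_left e hl, halt, neg_zero, add_zero]
    have := hB x 1
    rwa [pow_one] at this
  · intro w
    set D : H → A := fun u =>
      e (σ (σ (σ u))) w - 3 • e (σ (σ u)) w + 3 • e (σ u) w - e u w with hD
    have hDσ : ∀ u, D (σ u) = - D u := by
      intro u
      have h := polar e σ hl hr halt hinv hB (σ (σ (σ (σ u)))) (σ (σ w)) 2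
      simp only [pow_two, MulAut.mul_apply, hinv] at h
      rw [swap e hl hr halt w u, swap e hl hr halt w (σ u), two_nsmul] at h
      simp only [hD]
      simp only [show (3 : ℕ) = 1 + 1 + 1 from rfl, add_nsmul, one_nsmul]
      linear_combination (norm := abel) h
    have hit : ∀ (k : ℕ) u, D ((σ ^ (2 * k)) u) = D u := by
      intro k
      induction k with
      | zero => simp
      | succ k ih =>
        intro u
        rw [show 2 * (k + 1) = 2 * k + 1 + 1 from rfl, pow_succ_apply, pow_succ_apply, hDσ, hDσ,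
          neg_neg, ih]
    have h0 : D x = - D x := by
      conv_lhs => rw [← hper x, hm, pow_succ_apply, hDσ, hit]
    have hr2 : r • D x = 0 := by simp [hD, nsmul_add, nsmul_sub, ← mul_nsmul, mul_nsmul', hexp]
    have hzero : D x = 0 := by
      rw [← hpr, hm, add_nsmul, one_nsmul, mul_nsmul, two_nsmul] at hr2
      nth_rewrite 1 [h0] at hr2
      rwa [neg_add_cancel, nsmul_zero, zero_add] at hr2
    simp only [hD] at hzero
    simp only [map_mul, map_inv, hl, inv_left e hl]
    simp only [show (3 : ℕ) = 1 + 1 + 1 from rfl, add_nsmul, one_nsmul] at hzero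
    linear_combination (norm := abel) hzero

end Cfsg.Agent.H60.Pairing
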