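import Mathlib
import Cfsg.Agent.H60.SympPairing
import Cfsg.Agent.H60.EigenDecomp

/-!
Eigenspaces of an element normalising an absolutely irreducible group of extraspecial type.
-/

set_option autoImplicit false

open Module
open Cfsg.Agent.H60.EigenDecomp
open scoped commutatorElement

namespace Cfsg.Agent.H60.NormEig

variable {F V : Type*} [Field F] [AddCommGroup V] [Module F V] [FiniteDimensional F V]
variable {G : Type*} [Group G] (ρ : G →* End F V)

theorem apply_mul (a b : G) (v : V) : ρ (a * b) v = ρ a (ρ b v) := by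
  rw [map_mul, Module.End.mul_apply]

theorem apply_inv_apply (a : G) (v : V) : ρ a⁻¹ (ρ a v) = v := by
  rw [← apply_mul, inv_mul_cancel, map_one, Module.End.one_apply]

theorem apply_apply_inv (a : G) (v : V) : ρ a (ρ a⁻¹ v) = v := by
  rw [← apply_mul, mul_inv_cancel, map_one, Module.End.one_apply]

theorem inj (a : G) : Function.Injective (ρ a) := fun u v h => by
  rw [← apply_inv_apply ρ a u, h, apply_inv_apply]

theorem inv_fix {a : G} {v : V} (h : ρ a v = v) : ρ a⁻¹ v = v := by
  nth_rewrite 1 [← h]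
  exact apply_inv_apply ρ a v

/-- The common fixed points of two elements whose commutator is a nontrivial scalar are zero. -/
theorem fix_eq_zero {a b : G} {l : F} (hl : ρ ⁅a, b⁆ = l • 1) (hne : l ≠ 1) {v : V}
    (ha : ρ a v = v) (hb : ρ b v = v) : v = 0 := by
  have h : ρ ⁅a, b⁆ v = v := by
    rw [commutatorElement_def, apply_mul, apply_mul, apply_mul, inv_fix ρ hb, inv_fix ρ ha, hb, ha]
  rw [hl, LinearMap.smul_apply, Module.End.one_apply] at h
  by_contra hv
  exact hne (smul_left_injective F hv (by simpa using h))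

/-- A vector in an eigenspace of `g` and in its translate by `x` is fixed by every conjugate of
`g * x * g⁻¹ * x⁻¹` under powers of `g`. -/
theorem translate_fix {g x : G} {c : F} {v : V} (hv : ρ g v = c • v)
    (hv' : v ∈ ((ρ g).eigenspace c).map (ρ x)) (i : ℕ) :
    ρ (g ^ i * (g * x * g⁻¹ * x⁻¹) * (g ^ i)⁻¹) v = v := by
  rcases eq_or_ne v 0 with rfl | hv0
  · exact map_zero _
  have hc : c ≠ 0 := by
    intro h
    rw [h, zero_smul] at hv
    exact hv0 (inj ρ g (hv.trans (map_zero _).symm))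
  obtain ⟨w, hw, rfl⟩ := Submodule.mem_map.1 hv'
  rw [Module.End.mem_eigenspace_iff] at hw
  have hginv : ∀ u : V, ρ g u = c • u → ρ g⁻¹ u = c⁻¹ • u := by
    intro u hu
    have h := apply_inv_apply ρ g u
    rw [hu, map_smul] at h
    exact (eq_inv_smul_iff₀ hc).2 h
  have hy : ρ (g * x * g⁻¹ * x⁻¹) (ρ x w) = ρ x w := by
    rw [apply_mul, apply_inv_apply, apply_mul, hginv w hw, map_smul, apply_mul, hv, smul_smul,
      inv_mul_cancel₀ hc, one_smul]
  have hpow : ∀ k : ℕ, ρ (g ^ k) (ρ x w) = c ^ k • ρ x w := by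
    intro k
    induction k with
    | zero => simp
    | succ k ih => rw [pow_succ, apply_mul, hv, map_smul, ih, smul_smul, pow_succ']
  have hinvp : ρ (g ^ i)⁻¹ (ρ x w) = (c ^ i)⁻¹ • ρ x w := by
    have h := apply_inv_apply ρ (g ^ i) (ρ x w)
    rw [hpow, map_smul] at h
    exact (eq_inv_smul_iff₀ (pow_ne_zero i hc)).2 h
  rw [apply_mul, hinvp, map_smul, apply_mul, hy, hpow, smul_smul, inv_mul_cancel₀ (pow_ne_zero i hc),
    one_smul]

/-- The exponents of the translations between the eigenspaces. -/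
def tri : ℕ → ℕ
  | 0 => 0
  | j + 1 => tri j + (j + 1)

theorem fibre_le_two {r : ℕ} (hr : r.Prime) (hodd : r ≠ 2) {η : F} (hη : IsPrimitiveRoot η r) (b : F)
    [DecidableEq F] : ((Finset.range r).filter fun j => η ^ tri j = b).card ≤ 2 := by
  haveI : Fact r.Prime := ⟨hr⟩
  have hq : ∀ j : ℕ, 2 * (tri j : ZMod r) = (j : ZMod r) * ((j : ZMod r) + 1) := by
    intro j
    induction j with
    | zero => simp [tri]
    | succ j ih => simp only [tri, Nat.cast_add, Nat.cast_one, mul_add] at ih ⊢; linear_combination ih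
  have key : ∀ i j, i < r → j < r → η ^ tri i = η ^ tri j → i ≠ j →
      (i : ZMod r) + j + 1 = 0 := by
    intro i j hi hj h hne
    have h1 : (tri i : ZMod r) = (tri j : ZMod r) := by
      rw [ZMod.natCast_eq_natCast_iff]
      refine hη.pow_inj (Nat.mod_lt _ hr.pos) (Nat.mod_lt _ hr.pos) ?_
      rwa [← pow_eq_pow_mod _ hη.pow_eq_one, ← pow_eq_pow_mod _ hη.pow_eq_one]
    have h2 : ((i : ZMod r) - j) * ((i : ZMod r) + j + 1) = 0 := by
      linear_combination 2 * h1 - hq i + hq j
    rcases mul_eq_zero.1 h2 with h3 | h3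
    · exfalso
      apply hne
      have h4 := (ZMod.natCast_eq_natCast_iff i j r).1 (sub_eq_zero.1 h3)
      exact Nat.ModEq.eq_of_lt_of_lt h4 hi hj
    · exact h3
  by_contra hcon
  obtain ⟨i, j, k, hi, hj, hk, hij, hik, hjk⟩ := Finset.two_lt_card_iff.1 (not_le.1 hcon)
  rw [Finset.mem_filter, Finset.mem_range] at hi hj hk
  have a := key i j hi.1 hj.1 (hi.2.trans hj.2.symm) hij
  have b := key i k hi.1 hk.1 (hi.2.trans hk.2.symm) hik
  apply hjk
  exact Nat.ModEq.eq_of_lt_of_lt ((ZMod.natCast_eq_natCast_iff j k r).1 (by linear_combination a - b))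
    hj.1 hk.1

theorem cascade {r : ℕ} (hr : r.Prime) (hodd : r ≠ 2) (g x y z : G) (c ζ : F)
    (hy : y = g * x * g⁻¹ * x⁻¹) (hz : z = g * y * g⁻¹ * y⁻¹) (hgz : g * z = z * g)
    (hzx : z * x = x * z) (hzy : z * y = y * z) (hyr : ρ (y ^ r) = 1) (hzr : ρ (z ^ r) = 1)
    (hyx : ρ ⁅y, x⁆ = ζ • 1) (hζ : IsPrimitiveRoot ζ r) :
    (r = 3 → 3 ∣ finrank F V ∧ 3 * finrank F ((ρ g).eigenspace c) ≤ 2 * finrank F V) ∧
      (3 < r → 2 * finrank F ((ρ g).eigenspace c) ≤ finrank F V) := by
  classical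
  have hζ0 : ζ ≠ 0 := hζ.ne_zero hr.ne_zero
  set η : F := ζ⁻¹ with hηdef
  have hη : IsPrimitiveRoot η r := hζ.inv
  have hcomm : ∀ (a b : G), a * b = b * a → ∀ v, ρ a (ρ b v) = ρ b (ρ a v) := fun a b h v => by
    rw [← apply_mul, h, apply_mul]
  have hyxv : ∀ v, ρ y (ρ x v) = ζ • ρ x (ρ y v) := by
    intro v
    rw [← apply_mul, show y * x = ⁅y, x⁆ * (x * y) by rw [commutatorElement_def]; group, apply_mul, hyx,
      LinearMap.smul_apply, Module.End.one_apply, apply_mul]
  have hyxi : ∀ v, ρ y (ρ x⁻¹ v) = η • ρ x⁻¹ (ρ y v) := by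
    intro v
    have h := hyxv (ρ x⁻¹ v)
    rw [apply_apply_inv] at h
    rw [h, map_smul, apply_inv_apply, hηdef, inv_smul_smul₀ hζ0]
  -- eigenspaces of `y` are permuted cyclically
  have shiftEq : ∀ K : Submodule F V, (∀ v ∈ K, ρ x v ∈ K) → (∀ v ∈ K, ρ x⁻¹ v ∈ K) → ∀ j,
      finrank F (K ⊓ (ρ y).eigenspace (ζ ^ j) : Submodule F V)
        = finrank F (K ⊓ (ρ y).eigenspace 1 : Submodule F V) := by
    intro K h1 h2 j
    induction j with
    | zero => rw [pow_zero]
    | succ j ih =>
      rw [← ih]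
      refine le_antisymm (finrank_le_of_maps (inj ρ x⁻¹) fun v hv => ?_)
        (finrank_le_of_maps (inj ρ x) fun v hv => ?_)
      · rw [Submodule.mem_inf, Module.End.mem_eigenspace_iff] at hv ⊢
        refine ⟨h2 v hv.1, ?_⟩
        rw [hyxi, hv.2, map_smul, smul_smul, hηdef, pow_succ', ← mul_assoc, inv_mul_cancel₀ hζ0, one_mul]
      · rw [Submodule.mem_inf, Module.End.mem_eigenspace_iff] at hv ⊢
        refine ⟨h1 v hv.1, ?_⟩
        rw [hyxv, hv.2, map_smul, smul_smul, pow_succ']
  have hyfix : ∀ v, (ρ y ^ r) v = v := fun v => by rw [← map_pow, hyr, Module.End.one_apply]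
  have hzfix : ∀ v, (ρ z ^ r) v = v := fun v => by rw [← map_pow, hzr, Module.End.one_apply]
  have hdvd : r ∣ finrank F V := by
    have h := finrank_eq_sum (ρ y) hζ hr.pos ⊤ (fun v _ => Submodule.mem_top) (fun v _ => hyfix v)
    simp only [shiftEq ⊤ (fun v _ => Submodule.mem_top) (fun v _ => Submodule.mem_top)] at h
    rw [finrank_top, Finset.sum_const, Finset.card_range, smul_eq_mul] at h
    exact ⟨_, h⟩
  set W := (ρ g).eigenspace c with hW
  let Zk : ℕ → Submodule F V := fun k => (ρ z).eigenspace (ζ ^ k)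
  have hZinv : ∀ a : G, z * a = a * z → ∀ k, ∀ v ∈ Zk k, ρ a v ∈ Zk k := by
    intro a ha k v hv
    simp only [Zk, Module.End.mem_eigenspace_iff] at hv ⊢
    rw [hcomm z a ha, hv, map_smul]
  have hzxi : z * x⁻¹ = x⁻¹ * z := (Commute.inv_right (show Commute z x from hzx)).eq
  have hWz : finrank F W = ∑ k ∈ Finset.range r, finrank F (W ⊓ Zk k : Submodule F V) := by
    refine finrank_eq_sum (ρ z) hζ hr.pos W (fun v hv => ?_) (fun v _ => hzfix v)
    rw [hW, Module.End.mem_eigenspace_iff] at hv ⊢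
    rw [hcomm g z hgz, hv, map_smul]
  have hVz : finrank F V = ∑ k ∈ Finset.range r, finrank F (Zk k) := by
    have h := finrank_eq_sum (ρ z) hζ hr.pos ⊤ (fun v _ => Submodule.mem_top) (fun v _ => hzfix v)
    rw [finrank_top] at h
    exact h.trans (Finset.sum_congr rfl fun j _ =>
      congrArg (fun S : Submodule F V => finrank F S) (top_inf_eq _))
  have hoff : ∀ k ∈ Finset.range r, k ≠ 0 →
      2 * finrank F (W ⊓ Zk k : Submodule F V) ≤ finrank F (Zk k) := by
    intro k hk hk0
    have h := two_mul_finrank_le (inj ρ x) (A := W ⊓ Zk k) (K := Zk k) inf_le_right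
      (fun v hv => hZinv x hzx k v hv.2)
    have hbot : (W ⊓ Zk k) ⊓ (W ⊓ Zk k).map (ρ x) = ⊥ := by
      rw [eq_bot_iff]
      intro v hv
      rw [Submodule.mem_bot]
      obtain ⟨⟨hvW, hvZ⟩, hv2⟩ := hv
      have hv3 : v ∈ W.map (ρ x) := Submodule.map_mono inf_le_left hv2
      rw [hW] at hvW
      rw [SetLike.mem_coe, Module.End.mem_eigenspace_iff] at hvW
      have hvy : ρ y v = v := by
        have := translate_fix ρ hvW hv3 0
        rwa [pow_zero, one_mul, inv_one, mul_one, ← hy] at this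
      have hvz : ρ z v = v := by
        have := translate_fix ρ hvW hv3 1
        rw [pow_one, ← hy] at this
        rw [hz, apply_mul, inv_fix ρ hvy, this]
      simp only [Zk, SetLike.mem_coe, Module.End.mem_eigenspace_iff, hvz] at hvZ
      by_contra hv0
      exact hζ.pow_ne_one_of_pos_of_lt hk0 (Finset.mem_range.1 hk)
        (smul_left_injective F hv0 (by simpa using hvZ.symm))
    rw [hbot, finrank_bot] at h
    omega
  -- the fixed space of `z`
  set P := Zk 0 with hP
  have hgy : ∀ v ∈ P, ρ g (ρ y v) = ρ y (ρ g v) := by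
    intro v hv
    simp only [hP, Zk, pow_zero, Module.End.mem_eigenspace_iff, one_smul] at hv
    have e : g * y = z * y * g := by rw [hz]; group
    rw [← apply_mul, e, hzy, mul_assoc, apply_mul, ← hgz, apply_mul, hv]
  let Kj : ℕ → F → Submodule F V := fun j cc => (P ⊓ (ρ y).eigenspace (ζ ^ j)) ⊓ (ρ g).eigenspace cc
  have hback : ∀ j cc, finrank F (Kj (j + 1) cc) ≤ finrank F (Kj j (cc * η ^ (j + 1))) := by
    intro j cc
    refine finrank_le_of_maps (inj ρ x⁻¹) fun v hv => ?_
    simp only [Kj, Submodule.mem_inf, Module.End.mem_eigenspace_iff] at hv ⊢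
    obtain ⟨⟨hvP, hvy⟩, hvg⟩ := hv
    refine ⟨⟨hZinv _ hzxi 0 v hvP, ?_⟩, ?_⟩
    · rw [hyxi, hvy, map_smul, smul_smul, hηdef, pow_succ', ← mul_assoc, inv_mul_cancel₀ hζ0, one_mul]
    · have e : g * x⁻¹ = x⁻¹ * (y⁻¹ * g) := by rw [hy]; group
      have hyi : ρ y⁻¹ v = η ^ (j + 1) • v := by
        have h := apply_inv_apply ρ y v
        rw [hvy, map_smul] at h
        rw [hηdef, inv_pow]
        exact (eq_inv_smul_iff₀ (pow_ne_zero _ hζ0)).2 h
      rw [← apply_mul, e, apply_mul, apply_mul, hvg, map_smul, hyi, map_smul, map_smul, smul_smul]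
  have hdown : ∀ j cc, finrank F (Kj j cc) ≤ finrank F (Kj 0 (cc * η ^ tri j)) := by
    intro j
    induction j with
    | zero => intro cc; rw [tri, pow_zero, mul_one]
    | succ j ih =>
      intro cc
      refine (hback j cc).trans ((ih _).trans_eq ?_)
      rw [mul_assoc, ← pow_add, tri, add_comm]
  have hfix0 : r * finrank F (W ⊓ P : Submodule F V) ≤ 2 * finrank F P := by
    rcases eq_or_ne c 0 with hc | hc
    · have hW0 : W = ⊥ := by
        rw [eq_bot_iff]
        intro v hv
        rw [hW, Module.End.mem_eigenspace_iff, hc, zero_smul] at hv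
        exact (Submodule.mem_bot F).2 (inj ρ g (hv.trans (map_zero _).symm))
      rw [hW0, bot_inf_eq, finrank_bot, mul_zero]
      exact Nat.zero_le _
    have hs : finrank F (W ⊓ P : Submodule F V) = ∑ j ∈ Finset.range r, finrank F (Kj j c) := by
      rw [finrank_eq_sum (ρ y) hζ hr.pos (W ⊓ P) (fun v hv => ?_) (fun v _ => hyfix v)]
      · refine Finset.sum_congr rfl fun j _ => ?_
        simp only [Kj, hW]
        rw [inf_assoc, inf_comm ((ρ g).eigenspace c)]
      · refine Submodule.mem_inf.2 ⟨?_, hZinv y hzy 0 v hv.2⟩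
        have hvW := hv.1
        rw [hW, SetLike.mem_coe, Module.End.mem_eigenspace_iff] at hvW
        rw [hW, Module.End.mem_eigenspace_iff, hgy v hv.2, hvW, map_smul]
    have hp : finrank F P = r * finrank F (P ⊓ (ρ y).eigenspace 1 : Submodule F V) := by
      have h := finrank_eq_sum (ρ y) hζ hr.pos P (fun v hv => hZinv y hzy 0 v hv) (fun v _ => hyfix v)
      simp only [shiftEq P (fun v hv => hZinv x hzx 0 v hv) (fun v hv => hZinv _ hzxi 0 v hv)] at h
      rw [Finset.sum_const, Finset.card_range, smul_eq_mul] at h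
      exact h
    have h1 : ∑ j ∈ Finset.range r, finrank F (Kj j c)
        ≤ ∑ j ∈ Finset.range r, finrank F (Kj 0 (c * η ^ tri j)) :=
      Finset.sum_le_sum fun j _ => hdown j c
    rw [Finset.sum_comp (fun b => finrank F (Kj 0 (c * b))) (fun j => η ^ tri j)] at h1
    have h2 : ∑ b ∈ (Finset.range r).image (fun j => η ^ tri j), finrank F (Kj 0 (c * b))
        ≤ finrank F (P ⊓ (ρ y).eigenspace 1 : Submodule F V) := by
      have h := sum_eig_le (ρ g) (((Finset.range r).image fun j => η ^ tri j).image fun b => c * b)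
        (P ⊓ (ρ y).eigenspace 1)
      rw [Finset.sum_image fun a _ b _ hab => mul_left_cancel₀ hc hab] at h
      refine le_trans (Finset.sum_le_sum fun b _ => le_of_eq ?_) h
      exact congrArg (fun μ : F => finrank F
        ((P ⊓ (ρ y).eigenspace μ) ⊓ (ρ g).eigenspace (c * b) : Submodule F V)) (pow_zero ζ)
    have h3 : finrank F (W ⊓ P : Submodule F V) ≤ 2 * finrank F (P ⊓ (ρ y).eigenspace 1 : Submodule F V) := by
      rw [hs]
      refine h1.trans (le_trans ?_ (Nat.mul_le_mul_left 2 h2))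
      rw [Finset.mul_sum]
      refine Finset.sum_le_sum fun b _ => ?_
      rw [smul_eq_mul]
      exact Nat.mul_le_mul_right _ (fibre_le_two hr hodd hη b)
    calc r * finrank F (W ⊓ P : Submodule F V)
        ≤ r * (2 * finrank F (P ⊓ (ρ y).eigenspace 1 : Submodule F V)) := Nat.mul_le_mul_left r h3
      _ = 2 * finrank F P := by rw [hp]; ring
  refine ⟨fun h3 => ?_, fun h5 => ?_⟩
  · subst h3
    refine ⟨hdvd, ?_⟩
    rw [hWz, hVz, Finset.mul_sum, Finset.mul_sum]
    refine Finset.sum_le_sum fun k hk => ?_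
    rcases eq_or_ne k 0 with rfl | hk0
    · exact hfix0
    · have := hoff k hk hk0; omega
  · rw [hWz, hVz, Finset.mul_sum]
    refine Finset.sum_le_sum fun k hk => ?_
    rcases eq_or_ne k 0 with rfl | hk0
    · have h4 : 4 * finrank F (W ⊓ P : Submodule F V) ≤ r * finrank F (W ⊓ P : Submodule F V) :=
        Nat.mul_le_mul_right _ (by omega)
      have := h4.trans hfix0
      rw [hP] at this
      omega
    · exact hoff k hk hk0

end Cfsg.Agent.H60.NormEig
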