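import Mathlib
import Cfsg.Agent.H60.NormalizerEigen

/-!
The eigenspace bounds for an element of prime order normalising a group with scalar commutators.
-/

set_option autoImplicit false

open Module
open Cfsg.Agent.H60.EigenDecomp
open scoped commutatorElement

namespace Cfsg.Agent.H60.NormEig

variable {F V : Type*} [Field F] [AddCommGroup V] [Module F V] [FiniteDimensional F V]
variable {G : Type*} [Group G] (ρ : G →* End F V)

theorem mem_center_of_scalar (hρ : Function.Injective ρ) {a : G} {l : F} (h : ρ a = l • 1) :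
    a ∈ Subgroup.center G :=
  Subgroup.mem_center_iff.2 fun b => hρ (by rw [map_mul, map_mul, h, mul_smul_comm, smul_mul_assoc, one_mul, mul_one])

theorem bracket_mul_left {a b w : G} (h : ⁅b, w⁆ ∈ Subgroup.center G) :
    ⁅a * b, w⁆ = ⁅a, w⁆ * ⁅b, w⁆ := by
  have h' := Subgroup.mem_center_iff.1 h
  calc ⁅a * b, w⁆ = a * ⁅b, w⁆ * a⁻¹ * ⁅a, w⁆ := by simp only [commutatorElement_def]; group
    _ = ⁅b, w⁆ * a * a⁻¹ * ⁅a, w⁆ := by rw [h' a]
    _ = ⁅b, w⁆ * ⁅a, w⁆ := by group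
    _ = ⁅a, w⁆ * ⁅b, w⁆ := (h' ⁅a, w⁆).symm

theorem bracket_mul_right {a b w : G} (h : ⁅w, b⁆ ∈ Subgroup.center G) :
    ⁅w, a * b⁆ = ⁅w, a⁆ * ⁅w, b⁆ := by
  have h' := Subgroup.mem_center_iff.1 h
  calc ⁅w, a * b⁆ = ⁅w, a⁆ * (a * ⁅w, b⁆ * a⁻¹) := by simp only [commutatorElement_def]; group
    _ = ⁅w, a⁆ * ⁅w, b⁆ := by rw [h' a]; group

theorem conj_bracket (g a b : G) : ⁅g * a * g⁻¹, g * b * g⁻¹⁆ = g * ⁅a, b⁆ * g⁻¹ := by
  simp only [commutatorElement_def]; group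

theorem bounds (hρ : Function.Injective ρ) (H : Subgroup G) {ϖ r : ℕ} (hϖ : ϖ.Prime) (hr : r.Prime)
    (g : G) (hg : g ^ ϖ = 1) (hnorm : g ∈ Subgroup.normalizer (H : Set G))
    (hsc : ∀ a ∈ H, ∀ b ∈ H, ∃ l : F, ρ ⁅a, b⁆ = l • 1)
    (hexp : ∀ a ∈ H, ∀ b ∈ H, ⁅a, b⁆ ^ r = 1)
    (hnd : ∀ a ∈ H, (∀ b ∈ H, ⁅a, b⁆ = 1) → ∃ l : F, ρ a = l • 1)
    (hns : ∃ a ∈ H, g * a ≠ a * g) (c : F) :
    2 * finrank F ((ρ g).eigenspace c) ≤ finrank F V ∨
      (ϖ = 2 ∧ 4 * finrank F ((ρ g).eigenspace c) ≤ 3 * finrank F V) ∨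
      (ϖ = 3 ∧ 3 ∣ finrank F V ∧ 3 * finrank F ((ρ g).eigenspace c) ≤ 2 * finrank F V) := by
  classical
  set W := (ρ g).eigenspace c with hW
  have hcen : ∀ a ∈ H, ∀ b ∈ H, ⁅a, b⁆ ∈ Subgroup.center G := fun a ha b hb => by
    obtain ⟨l, hl⟩ := hsc a ha b hb
    exact mem_center_of_scalar ρ hρ hl
  have hconj : ∀ a ∈ H, g * a * g⁻¹ ∈ H := fun a ha => (Subgroup.mem_normalizer_iff.1 hnorm a).1 ha
  have hconjn : ∀ (i : ℕ) (a : G), a ∈ H → g ^ i * a * (g ^ i)⁻¹ ∈ H := fun i a ha =>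
    (Subgroup.mem_normalizer_iff.1 (pow_mem hnorm i) a).1 ha
  have hyH : ∀ x ∈ H, g * x * g⁻¹ * x⁻¹ ∈ H := fun x hx => mul_mem (hconj x hx) (inv_mem hx)
  -- translates of `W`
  have hWfix : ∀ (x : G), ∀ v ∈ W ⊓ W.map (ρ x), ∀ i : ℕ,
      ρ (g ^ i * (g * x * g⁻¹ * x⁻¹) * (g ^ i)⁻¹) v = v := by
    intro x v hv i
    obtain ⟨hv1, hv2⟩ := hv
    rw [hW, SetLike.mem_coe, Module.End.mem_eigenspace_iff] at hv1
    exact translate_fix ρ hv1 hv2 i
  have hhalf : ∀ x : G, 2 * finrank F W ≤ finrank F V + finrank F (W ⊓ W.map (ρ x) : Submodule F V) := by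
    intro x
    have h := two_mul_finrank_le (inj ρ x) (A := W) (K := ⊤) le_top (fun v _ => Submodule.mem_top)
    rwa [finrank_top] at h
  by_cases hbad : ∃ x ∈ H, W ⊓ W.map (ρ x) = ⊥
  · obtain ⟨x, -, hx⟩ := hbad
    left
    have h := hhalf x
    rw [hx, finrank_bot, add_zero] at h
    exact h
  push Not at hbad
  have hexv : ∀ x ∈ H, ∃ v ∈ W ⊓ W.map (ρ x), v ≠ 0 := fun x hx =>
    Submodule.exists_mem_ne_zero_of_ne_bot (hbad x hx)
  have hscal : ∀ {a : G} {l : F}, ρ a = l • 1 → ∀ {v : V}, v ≠ 0 → ρ a v = v → a = 1 := by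
    intro a l hl v hv hav
    rw [hl, LinearMap.smul_apply, Module.End.one_apply] at hav
    have hl1 : l = 1 := smul_left_injective F hv (show l • v = (1 : F) • v by rw [one_smul]; exact hav)
    exact hρ (by rw [hl, hl1, one_smul, map_one])
  have hy0 : ∀ x ∈ H, ∀ v ∈ W ⊓ W.map (ρ x), ρ (g * x * g⁻¹ * x⁻¹) v = v := by
    intro x hx v hv
    have := hWfix x v hv 0
    rwa [pow_zero, one_mul, inv_one, mul_one] at this
  -- conjugates of each commutator with `g` commute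
  have horb : ∀ x ∈ H, ∀ i : ℕ,
      ⁅g ^ i * (g * x * g⁻¹ * x⁻¹) * (g ^ i)⁻¹, g * x * g⁻¹ * x⁻¹⁆ = 1 := by
    intro x hx i
    obtain ⟨v, hv, hv0⟩ := hexv x hx
    by_contra h
    obtain ⟨l, hl⟩ := hsc _ (hconjn i _ (hyH x hx)) _ (hyH x hx)
    refine hv0 (fix_eq_zero ρ hl (fun h1 => h (hρ ?_)) (hWfix x v hv i) (hy0 x hx v hv))
    rw [hl, h1, one_smul, map_one]
  obtain ⟨x, hxH, hxy⟩ : ∃ x ∈ H, g * x * g⁻¹ * x⁻¹ ≠ 1 := by
    obtain ⟨a, ha, hne⟩ := hns
    refine ⟨a, ha, fun h => hne ?_⟩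
    calc g * a = (g * a * g⁻¹ * a⁻¹) * a * g := by group
      _ = a * g := by rw [h, one_mul]
  have hynd : ∃ t ∈ H, ⁅g * x * g⁻¹ * x⁻¹, t⁆ ≠ 1 := by
    by_contra h
    push Not at h
    obtain ⟨l, hl⟩ := hnd _ (hyH x hxH) h
    obtain ⟨v, hv, hv0⟩ := hexv x hxH
    exact hxy (hscal hl hv0 (hy0 x hxH v hv))
  rcases hϖ.eq_two_or_odd' with h2 | hodd
  · right; left
    refine ⟨h2, ?_⟩
    obtain ⟨t, htH, hne⟩ := hynd
    set y := g * x * g⁻¹ * x⁻¹ with hy
    set E := (ρ y).eigenspace 1 with hE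
    obtain ⟨l, hl⟩ := hsc y (hyH x hxH) t htH
    have hl1 : l ≠ 1 := fun h => hne (hρ (by rw [hl, h, one_smul, map_one]))
    have hlt : ∀ v, ρ y (ρ t v) = l • ρ t (ρ y v) := by
      intro v
      rw [← apply_mul, show y * t = ⁅y, t⁆ * (t * y) by rw [commutatorElement_def]; group, apply_mul, hl,
        LinearMap.smul_apply, Module.End.one_apply, apply_mul]
    have hbot : E ⊓ E.map (ρ t) = ⊥ := by
      rw [eq_bot_iff]
      intro v hv
      obtain ⟨hv1, hv2⟩ := hv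
      obtain ⟨w, hw, rfl⟩ := Submodule.mem_map.1 hv2
      rw [hE, SetLike.mem_coe, Module.End.mem_eigenspace_iff, one_smul, hlt] at hv1
      rw [hE, Module.End.mem_eigenspace_iff, one_smul] at hw
      rw [hw] at hv1
      rw [Submodule.mem_bot]
      by_contra hv0
      exact hl1 (smul_left_injective F hv0 (show l • ρ t w = (1 : F) • ρ t w by rw [one_smul]; exact hv1))
    have h3 := two_mul_finrank_le (inj ρ t) (A := E) (K := ⊤) le_top (fun v _ => Submodule.mem_top)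
    rw [hbot, finrank_bot, add_zero, finrank_top] at h3
    have h4 : finrank F (W ⊓ W.map (ρ x) : Submodule F V) ≤ finrank F E :=
      Submodule.finrank_mono fun v hv => by
        rw [hE, Module.End.mem_eigenspace_iff, one_smul]; exact hy0 x hxH v hv
    have := hhalf x
    omega
  · -- the pairing
    letI : CommGroup (Subgroup.center G) :=
      { (inferInstance : Group (Subgroup.center G)) with
        mul_comm := fun a b => Subtype.ext ((Subgroup.mem_center_iff.1 b.2) a) }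
    let e : H → H → Additive (Subgroup.center G) := fun a b =>
      Additive.ofMul ⟨⁅(a : G), (b : G)⁆, hcen _ a.2 _ b.2⟩
    have heq : ∀ a b a' b' : H, ⁅(a : G), (b : G)⁆ = ⁅(a' : G), (b' : G)⁆ → e a b = e a' b' :=
      fun a b a' b' h => congrArg Additive.ofMul (Subtype.ext h)
    have he0 : ∀ a b : H, e a b = 0 ↔ ⁅(a : G), (b : G)⁆ = 1 := fun a b =>
      ⟨fun h => congrArg Subtype.val (congrArg Additive.toMul h),
        fun h => congrArg Additive.ofMul (Subtype.ext h)⟩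
    let σ : MulAut H := Subgroup.normalizerMonoidHom H ⟨g, hnorm⟩
    have hσ : ∀ a : H, ((σ a : H) : G) = g * a * g⁻¹ := fun a => rfl
    have hσp : ∀ (k : ℕ) (a : H), (((σ ^ k) a : H) : G) = g ^ k * a * (g ^ k)⁻¹ := by
      intro k
      induction k with
      | zero => intro a; simp
      | succ k ih => intro a; rw [pow_succ' σ, MulAut.mul_apply, hσ, ih, pow_succ' g]; group
    have hl' : ∀ a b w : H, e (a * b) w = e a w + e b w := fun a b w =>
      congrArg Additive.ofMul (Subtype.ext (bracket_mul_left (hcen _ b.2 _ w.2)) :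
        (⟨_, hcen _ (a * b).2 _ w.2⟩ : Subgroup.center G) = ⟨_, hcen _ a.2 _ w.2⟩ * ⟨_, hcen _ b.2 _ w.2⟩)
    have hr' : ∀ a b w : H, e w (a * b) = e w a + e w b := fun a b w =>
      congrArg Additive.ofMul (Subtype.ext (bracket_mul_right (hcen _ w.2 _ b.2)) :
        (⟨_, hcen _ w.2 _ (a * b).2⟩ : Subgroup.center G) = ⟨_, hcen _ w.2 _ a.2⟩ * ⟨_, hcen _ w.2 _ b.2⟩)
    have halt : ∀ a, e a a = 0 := fun a => (he0 a a).2 (commutatorElement_self _)
    have hinv : ∀ a b, e (σ a) (σ b) = e a b := fun a b => heq _ _ _ _ (by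
      rw [hσ, hσ, conj_bracket, Subgroup.mem_center_iff.1 (hcen _ a.2 _ b.2) g, mul_inv_cancel_right])
    have hB : ∀ a (i : ℕ), e ((σ ^ i) (σ a * a⁻¹)) (σ a * a⁻¹) = 0 := fun a i => (he0 _ _).2 (by
      rw [hσp, Subgroup.coe_mul, Subgroup.coe_inv, hσ]
      exact horb a a.2 i)
    have hper : ∀ a, (σ ^ ϖ) a = a := fun a => Subtype.ext (by rw [hσp, hg, one_mul, inv_one, mul_one])
    have hex : ∀ a b, r • e a b = 0 := fun a b =>
      congrArg Additive.ofMul (Subtype.ext (hexp _ a.2 _ b.2) :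
        (⟨_, hcen _ a.2 _ b.2⟩ : Subgroup.center G) ^ r = 1)
    have hnt : ∃ a b, e (σ a) b ≠ e a b := by
      obtain ⟨t, htH, hne⟩ := hynd
      refine ⟨⟨x, hxH⟩, ⟨t, htH⟩, fun h => hne ?_⟩
      have h' : e (σ ⟨x, hxH⟩ * (⟨x, hxH⟩ : H)⁻¹) ⟨t, htH⟩ = 0 := by
        rw [hl', Pairing.inv_left e hl', h, add_neg_cancel]
      have := (he0 _ _).1 h'
      rwa [Subgroup.coe_mul, Subgroup.coe_inv, hσ] at this
    obtain ⟨hpr, x', hyx', hzx', hzy', hσz⟩ := Pairing.main e σ hl' hr' halt hinv hB hϖ hodd hr hper hex hnt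
    clear hynd hxy hxH x
    obtain ⟨x, hxH⟩ := x'
    set y := g * x * g⁻¹ * x⁻¹ with hy
    set z := g * y * g⁻¹ * y⁻¹ with hz
    have hyH' : y ∈ H := hyH x hxH
    have hzH : z ∈ H := hyH y hyH'
    have hyco : ((σ ⟨x, hxH⟩ * (⟨x, hxH⟩ : H)⁻¹ : H) : G) = y := by
      rw [Subgroup.coe_mul, Subgroup.coe_inv, hσ]
    have hzco : ((σ (σ ⟨x, hxH⟩ * (⟨x, hxH⟩ : H)⁻¹) * (σ ⟨x, hxH⟩ * (⟨x, hxH⟩ : H)⁻¹)⁻¹ : H) : G) = z := by
      rw [Subgroup.coe_mul, Subgroup.coe_inv, hσ, hyco]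
    have hyx : ⁅y, x⁆ ≠ 1 := fun h => hyx' ((he0 _ _).2 (by rw [hyco]; exact h))
    have hzx : z * x = x * z := commutatorElement_eq_one_iff_mul_comm.1
      (by have := (he0 _ _).1 hzx'; rwa [hzco] at this)
    have hzy : z * y = y * z := commutatorElement_eq_one_iff_mul_comm.1
      (by have := (he0 _ _).1 hzy'; rwa [hzco, hyco] at this)
    obtain ⟨v, hv, hv0⟩ := hexv x hxH
    have hvy : ρ y v = v := hy0 x hxH v hv
    have hv1 : ρ (g * y * g⁻¹) v = v := by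
      have := hWfix x v hv 1
      rwa [pow_one] at this
    have hvz : ρ z v = v := by rw [hz, apply_mul, inv_fix ρ hvy, hv1]
    have hvz1 : ρ (g * z * g⁻¹) v = v := by
      have h2 := hWfix x v hv 2
      rw [← hy, pow_two] at h2
      rw [show g * z * g⁻¹ = (g * g * y * (g * g)⁻¹) * (g * y * g⁻¹)⁻¹ by rw [hz]; group, apply_mul,
        inv_fix ρ hv1, h2]
    have hpowfix : ∀ (a : G), ρ a v = v → ∀ k : ℕ, ρ (a ^ k) v = v := by
      intro a ha k
      induction k with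
      | zero => simp
      | succ m ih => rw [pow_succ, apply_mul, ha, ih]
    have hpow1 : ∀ a ∈ H, ρ a v = v → ρ (a ^ r) = 1 := by
      intro a haH hav
      obtain ⟨l, hl⟩ := hnd (a ^ r) (pow_mem haH r) (fun b hb => by
        have h : r • e ⟨a, haH⟩ ⟨b, hb⟩ = 0 := hex _ _
        have h' : ∀ k : ℕ, e (⟨a, haH⟩ ^ k) ⟨b, hb⟩ = k • e ⟨a, haH⟩ ⟨b, hb⟩ := by
          intro k
          induction k with
          | zero =>
            rw [pow_zero, zero_smul]
            exact (he0 _ _).2 (commutatorElement_one_left _)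
          | succ k ih => rw [pow_succ, hl', ih, succ_nsmul]
        rw [← h'] at h
        exact (he0 _ _).1 h)
      rw [hscal hl hv0 (hpowfix a hav r), map_one]
    have hgz : g * z = z * g := by
      have hd : g * z * g⁻¹ * z⁻¹ = 1 := by
        obtain ⟨l, hl⟩ := hnd _ (hyH z hzH) (fun b hb => by
          have h := hσz ⟨b, hb⟩
          have h' : e (σ (⟨z, hzH⟩ : H) * (⟨z, hzH⟩ : H)⁻¹) ⟨b, hb⟩ = 0 := by
            rw [hl', Pairing.inv_left e hl', show (⟨z, hzH⟩ : H) = _ from (Subtype.ext hzco).symm, h,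
              add_neg_cancel]
          have := (he0 _ _).1 h'
          rwa [Subgroup.coe_mul, Subgroup.coe_inv, hσ] at this)
        exact hscal hl hv0 (by rw [apply_mul, inv_fix ρ hvz, hvz1])
      calc g * z = (g * z * g⁻¹ * z⁻¹) * z * g := by group
        _ = z * g := by rw [hd, one_mul]
    obtain ⟨ζ, hζ⟩ := hsc y hyH' x hxH
    have hζ1 : ζ ≠ 1 := fun h => hyx (hρ (by rw [hζ, h, one_smul, map_one]))
    have hζr : ζ ^ r = 1 := by
      have h : ρ (⁅y, x⁆ ^ r) v = v := by rw [hexp y hyH' x hxH, map_one, Module.End.one_apply]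
      rw [map_pow, hζ, smul_pow, one_pow, LinearMap.smul_apply, Module.End.one_apply] at h
      exact smul_left_injective F hv0 (show ζ ^ r • v = (1 : F) • v by rw [one_smul]; exact h)
    haveI : Fact r.Prime := ⟨hr⟩
    have hprim : IsPrimitiveRoot ζ r := by
      rw [IsPrimitiveRoot.iff_orderOf]; exact orderOf_eq_prime hζr hζ1
    have hr2 : r ≠ 2 := fun h => by subst hpr; subst h; exact absurd hodd (by decide)
    have hres := cascade ρ hr hr2 g x y z c ζ hy hz hgz hzx hzy (hpow1 y hyH' hvy) (hpow1 z hzH hvz) hζ hprim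
    rcases eq_or_ne r 3 with h3 | h3
    · right; right; exact ⟨hpr.trans h3, hres.1 h3⟩
    · left; exact hres.2 (by have := hr.two_le; omega)

end Cfsg.Agent.H60.NormEig
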