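import Cfsg.Prelude.Def_GeometricClasses
import Cfsg.Agent.H60.NormalizerEigenBound

/-!
Eigenspace bounds for elements normalising an absolutely irreducible extraspecial group times scalars.
-/

set_option autoImplicit false

open Module
open scoped commutatorElement

namespace Cfsg.Agent.H60.NormEig

variable {F : Type*} [Field F] {n : ℕ}

local notation "GLn" => Matrix.GeneralLinearGroup (Fin n) F

theorem commute_scalars {z : GLn} (hz : z ∈ Cfsg.Geo.scalars (Fin n) F) : z ∈ Subgroup.center GLn := by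
  obtain ⟨c, hc⟩ := (Cfsg.Geo.mem_scalars_iff z).1 hz
  exact Subgroup.mem_center_iff.2 fun a => Units.ext (by simp [hc])

theorem extraspecial_bound (R : Subgroup GLn) {r ϖ : ℕ} (hr : r.Prime)
    (hZ : Nat.card (Subgroup.center R) = r) (hext : commutator R = Subgroup.center R)
    (hirr : Cfsg.Geo.ActsAbsolutelyIrreducibly (Cfsg.Geo.matrixSet R)) (g : GLn)
    (hg : g ∈ Cfsg.Geo.subgroupNormalizer (R ⊔ Cfsg.Geo.scalars (Fin n) F)) (hϖ : ϖ.Prime)
    (hord : orderOf g = ϖ) (hns : g ∉ Cfsg.Geo.scalars (Fin n) F) (c : F) :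
    2 * finrank F (Module.End.eigenspace (Matrix.toLin' (g : Matrix (Fin n) (Fin n) F)) c) ≤ n ∨
      (ϖ = 2 ∧ 4 * finrank F (Module.End.eigenspace (Matrix.toLin' (g : Matrix (Fin n) (Fin n) F)) c) ≤ 3 * n) ∨
      (ϖ = 3 ∧ 3 ∣ n ∧
        3 * finrank F (Module.End.eigenspace (Matrix.toLin' (g : Matrix (Fin n) (Fin n) F)) c) ≤ 2 * n) := by
  classical
  set ρ : GLn →* Module.End F (Fin n → F) :=
    (Matrix.toLinAlgEquiv' (R := F) (n := Fin n)).toAlgHom.toRingHom.toMonoidHom.comp (Units.coeHom _) with hρdef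
  have hρapp : ∀ a : GLn, ρ a = Matrix.toLin' (a : Matrix (Fin n) (Fin n) F) := fun a => rfl
  have hρ : Function.Injective ρ := fun a b h => Units.ext (Matrix.toLinAlgEquiv'.injective h)
  have hscal : ∀ a : GLn, ∀ l : F, (a : Matrix (Fin n) (Fin n) F) = l • 1 → ρ a = l • 1 := fun a l h => by
    rw [hρapp, h, map_smul, Matrix.toLin'_one]; rfl
  have hirr2 : ∀ a : GLn, (∀ b ∈ R, a * b = b * a) → ∃ l : F, (a : Matrix (Fin n) (Fin n) F) = l • 1 := by
    intro a ha
    refine hirr.2 _ ?_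
    rintro _ ⟨b, hb, rfl⟩
    exact congrArg Units.val (ha b hb)
  set H := R ⊔ Cfsg.Geo.scalars (Fin n) F with hH
  have hdec : ∀ a ∈ H, ∃ b ∈ R, ∃ z ∈ Cfsg.Geo.scalars (Fin n) F, b * z = a := fun a ha =>
    Subgroup.mem_sup_of_normal_right.1 ha
  have hbr : ∀ a ∈ H, ∀ b ∈ H, ∃ u v : R, ⁅a, b⁆ = ((⁅u, v⁆ : R) : GLn) := by
    intro a ha b hb
    obtain ⟨u, hu, z, hz, rfl⟩ := hdec a ha
    obtain ⟨v, hv, w, hw, rfl⟩ := hdec b hb
    refine ⟨⟨u, hu⟩, ⟨v, hv⟩, ?_⟩
    have hz' := Subgroup.mem_center_iff.1 (commute_scalars hz)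
    have hw' := Subgroup.mem_center_iff.1 (commute_scalars hw)
    have e1 : ∀ q : GLn, ⁅z, q⁆ = 1 := fun q => commutatorElement_eq_one_iff_mul_comm.2 (hz' q).symm
    have e2 : ∀ q : GLn, ⁅q, w⁆ = 1 := fun q => commutatorElement_eq_one_iff_mul_comm.2 (hw' q)
    rw [bracket_mul_left (by rw [e1]; exact one_mem _), e1, mul_one,
      bracket_mul_right (by rw [e2]; exact one_mem _), e2, mul_one]
    rfl
  have hcR : ∀ u v : R, ⁅u, v⁆ ∈ Subgroup.center R := fun u v => hext ▸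
    Subgroup.commutator_mem_commutator (Subgroup.mem_top u) (Subgroup.mem_top v)
  have hres := bounds ρ hρ H hϖ hr g (hord ▸ pow_orderOf_eq_one g) hg
    (fun a ha b hb => by
      obtain ⟨u, v, huv⟩ := hbr a ha b hb
      obtain ⟨l, hl⟩ := hirr2 ((⁅u, v⁆ : R) : GLn) (fun q hq => by
        exact (congrArg Subtype.val (Subgroup.mem_center_iff.1 (hcR u v) ⟨q, hq⟩)).symm)
      exact ⟨l, by rw [huv]; exact hscal _ l hl⟩)
    (fun a ha b hb => by
      obtain ⟨u, v, huv⟩ := hbr a ha b hb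
      haveI : Finite (Subgroup.center R) := Nat.finite_of_card_ne_zero (by rw [hZ]; exact hr.ne_zero)
      have h : (⟨⁅u, v⁆, hcR u v⟩ : Subgroup.center R) ^ r = 1 := hZ ▸ pow_card_eq_one'
      rw [huv, ← Subgroup.coe_pow, show (⁅u, v⁆ : R) ^ r = 1 from congrArg Subtype.val h, Subgroup.coe_one])
    (fun a ha h => by
      obtain ⟨l, hl⟩ := hirr2 a (fun b hb =>
        commutatorElement_eq_one_iff_mul_comm.1 (h b (Subgroup.mem_sup_left hb)))
      exact ⟨l, hscal a l hl⟩)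
    (by
      by_contra h
      push Not at h
      obtain ⟨l, hl⟩ := hirr2 g (fun b hb => h b (Subgroup.mem_sup_left hb))
      apply hns
      rw [Cfsg.Geo.mem_scalars_iff]
      rcases eq_or_ne l 0 with h0 | h0
      · rw [h0, zero_smul] at hl
        refine ⟨1, ?_⟩
        have h1 : (1 : Matrix (Fin n) (Fin n) F) = 0 := by
          rw [← Units.mul_inv g, hl, zero_mul]
        rw [hl, h1, smul_zero]
      · exact ⟨Units.mk0 l h0, hl⟩) c
  rw [finrank_fin_fun] at hres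
  exact hres

end Cfsg.Agent.H60.NormEig
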