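import Cfsg.Prelude.Def_CaseTheorems
import Cfsg.Agent.H19.Cores
import Cfsg.Agent.H24.PGroupBasic
import Cfsg.Agent.H61.Basic
import Cfsg.Agent.H48.OddInvolution
import Mathlib.GroupTheory.SpecificGroups.KleinFour
import Mathlib.GroupTheory.SpecificGroups.Cyclic

/-!
In a group of characteristic 2 type, a normal four-group of a Sylow 2-subgroup (central when the centre
is not cyclic) centralises the subgroups of odd order it normalises.
-/

set_option autoImplicit false

namespace Cfsg.Agent.H60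

open Subgroup
open scoped Pointwise

/-- An element moving `O_2(X)` only within a central subgroup of order two lies in `O_2(X)`. -/
theorem mem_pCore_two_of_central_chain {X : Type*} [Group X] [Finite X]
    (hc : centralizer (Cfsg.pCore 2 X : Set X) ≤ Cfsg.pCore 2 X) {u : X} (hu : u ∈ center X)
    (hu2 : u * u = 1) {v : X}
    (hv : ∀ q ∈ Cfsg.pCore 2 X, v * q * v⁻¹ = q ∨ v * q * v⁻¹ = u * q) : v ∈ Cfsg.pCore 2 X := by
  haveI : Fact (Nat.Prime 2) := ⟨Nat.prime_two⟩
  set Q := Cfsg.pCore 2 X with hQ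
  haveI : Q.Normal := H19.pCore_normal 2 X
  have hcu : ∀ g : X, g * u = u * g := fun g => mem_center_iff.1 hu g
  have hcc : ∀ g q : X, g * (u * q) * g⁻¹ = u * (g * q * g⁻¹) := fun g q => by
    rw [← mul_assoc g u q, hcu g]; group
  let D : Subgroup X :=
    { carrier := {d | ∀ q ∈ Q, d * q * d⁻¹ = q ∨ d * q * d⁻¹ = u * q}
      one_mem' := fun q _ => Or.inl (by simp)
      mul_mem' := by
        intro a b ha hb q hq
        have e : a * b * q * (a * b)⁻¹ = a * (b * q * b⁻¹) * a⁻¹ := by group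
        rw [e]
        rcases hb q hq with h1 | h1 <;> rcases ha q hq with h2 | h2
        · exact Or.inl (by rw [h1, h2])
        · exact Or.inr (by rw [h1, h2])
        · exact Or.inr (by rw [h1, hcc, h2])
        · exact Or.inl (by rw [h1, hcc, h2, ← mul_assoc, hu2, one_mul])
      inv_mem' := by
        intro a ha q hq
        have hq' : a⁻¹ * q * a ∈ Q := by simpa using (inferInstance : Q.Normal).conj_mem q hq a⁻¹
        rw [inv_inv]
        rcases ha _ hq' with h1 | h1
        · exact Or.inl (by simpa [mul_assoc] using h1.symm)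
        · refine Or.inr ?_
          have h2 : q = u * (a⁻¹ * q * a) := by simpa [mul_assoc] using h1
          calc a⁻¹ * q * a = u * u * (a⁻¹ * q * a) := by rw [hu2, one_mul]
            _ = u * (u * (a⁻¹ * q * a)) := mul_assoc _ _ _
            _ = u * q := by rw [← h2] }
  haveI : D.Normal := ⟨fun d hd g q hq => by
    have hq' : g⁻¹ * q * g ∈ Q := by simpa using (inferInstance : Q.Normal).conj_mem q hq g⁻¹
    have e : g * d * g⁻¹ * q * (g * d * g⁻¹)⁻¹ = g * (d * (g⁻¹ * q * g) * d⁻¹) * g⁻¹ := by group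
    rw [e]
    rcases hd _ hq' with h1 | h1
    · exact Or.inl (by rw [h1]; group)
    · refine Or.inr ?_
      rw [h1, hcc]
      group⟩
  have hD2 : IsPGroup 2 D := by
    intro d
    have h1 : (d : X) * d ∈ Q := by
      refine hc (mem_centralizer_iff.2 fun q hq => ?_)
      have h2 : (d : X) * d * q * ((d : X) * d)⁻¹ = q := by
        rw [show (d : X) * d * q * ((d : X) * d)⁻¹ = d * (d * q * (d : X)⁻¹) * (d : X)⁻¹ by group]
        rcases d.2 q hq with h2 | h2
        · rw [h2, h2]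
        · rw [h2, hcc, h2, ← mul_assoc, hu2, one_mul]
      exact (mul_inv_eq_iff_eq_mul.1 h2).symm
    obtain ⟨k, hk⟩ := H19.pCore_isPGroup (G := X) 2 ⟨_, h1⟩
    refine ⟨k + 1, Subtype.ext ?_⟩
    have hk' : ((d : X) * d) ^ 2 ^ k = 1 := congrArg Subtype.val hk
    rw [SubmonoidClass.coe_pow, pow_succ', pow_mul, pow_two, hk', OneMemClass.coe_one]
  exact H19.le_pCore inferInstance hD2 hv

variable {G : Type*} [Group G] [Finite G]

/-- A cyclic subgroup contains at most one involution. -/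
theorem involution_unique_of_isCyclic {C : Subgroup G} (hC : IsCyclic C) {x y : G} (hx : x ∈ C)
    (hy : y ∈ C) (hx1 : x * x = 1) (hy1 : y * y = 1) (hxne : x ≠ 1) (hyne : y ≠ 1) : x = y := by
  classical
  haveI := Fintype.ofFinite C
  by_contra hne
  have h := IsCyclic.card_pow_eq_one_le (α := C) (n := 2) (by norm_num)
  have hsub : ({1, ⟨x, hx⟩, ⟨y, hy⟩} : Finset C) ⊆ Finset.univ.filter (fun a : C => a ^ 2 = 1) := by
    intro a ha
    simp only [Finset.mem_insert, Finset.mem_singleton] at ha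
    refine Finset.mem_filter.2 ⟨Finset.mem_univ _, ?_⟩
    rcases ha with rfl | rfl | rfl
    · simp
    · exact Subtype.ext (by rw [SubmonoidClass.coe_pow, pow_two]; exact hx1)
    · exact Subtype.ext (by rw [SubmonoidClass.coe_pow, pow_two]; exact hy1)
  have h3 : ({1, ⟨x, hx⟩, ⟨y, hy⟩} : Finset C).card = 3 := by
    rw [Finset.card_eq_three]
    exact ⟨1, _, _, fun e => hxne (congrArg Subtype.val e).symm,
      fun e => hyne (congrArg Subtype.val e).symm, fun e => hne (congrArg Subtype.val e), rfl⟩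
  have := (Finset.card_le_card hsub).trans h
  omega

/-- The elements of a four-group in terms of two of them. -/
theorem four_cases {U : Subgroup G} (hU4 : IsKleinFour U) {a b x : G} (ha : a ∈ U) (hb : b ∈ U)
    (hx : x ∈ U) (ha1 : a ≠ 1) (hb1 : b ≠ 1) (hab : a ≠ b) :
    x = 1 ∨ x = a ∨ x = b ∨ x = a * b := by
  haveI := hU4
  by_contra hall
  push Not at hall
  obtain ⟨h1, h2, h3, h4⟩ := hall
  refine h4 (congrArg Subtype.val (IsKleinFour.eq_mul_of_ne_all (x := (⟨a, ha⟩ : U)) (y := ⟨b, hb⟩)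
    (z := ⟨x, hx⟩) ?_ ?_ ?_ ?_ ?_ ?_)) <;> intro e
  · exact ha1 (congrArg Subtype.val e)
  · exact hb1 (congrArg Subtype.val e)
  · exact hab (congrArg Subtype.val e)
  · exact h1 (congrArg Subtype.val e)
  · exact h2 (congrArg Subtype.val e)
  · exact h3 (congrArg Subtype.val e)

/-- The action of a Sylow 2-subgroup of `C(u)` on the normal four-group of `P`. -/
theorem four_group_moved (P : Sylow 2 G) (U : Subgroup G) (hUP : U ≤ (P : Subgroup G))
    (hUn : (P : Subgroup G) ≤ normalizer (U : Set G)) (hU4 : IsKleinFour U)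
    (hUZ : ¬ IsCyclic ↥((P : Subgroup G) ⊓ centralizer ((P : Subgroup G) : Set G)) →
      U ≤ centralizer ((P : Subgroup G) : Set G))
    {u v y : G} (hu : u ∈ U) (hu1 : u ≠ 1) (hv : v ∈ U) {T1 : Subgroup G} (hT1 : IsPGroup 2 T1)
    (hTT : (P : Subgroup G) ⊓ centralizer {u} ≤ T1) (hT1u : T1 ≤ centralizer {u}) (hy : y ∈ T1) :
    y * v * y⁻¹ = v ∨ y * v * y⁻¹ = u * v := by
  haveI : Fact (Nat.Prime 2) := ⟨Nat.prime_two⟩
  have hsq : ∀ x ∈ U, x * x = 1 := fun x hx => by
    haveI := hU4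
    exact congrArg Subtype.val (IsKleinFour.mul_self (⟨x, hx⟩ : U))
  have hinv : ∀ x ∈ U, x⁻¹ = x := fun x hx => inv_eq_of_mul_eq_one_right (hsq x hx)
  have hcomm : ∀ x ∈ U, ∀ w ∈ U, x * w = w * x := fun x hx w hw => by
    rw [← hinv _ (mul_mem hx hw), mul_inv_rev, hinv x hx, hinv w hw]
  have hyu : y * u = u * y := mem_centralizer_singleton_iff.1 (hT1u hy)
  rcases eq_or_ne v 1 with rfl | hv1
  · exact Or.inl (by group)
  rcases eq_or_ne v u with rfl | hvu
  · exact Or.inl (mul_inv_eq_iff_eq_mul.2 hyu)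
  by_cases huZ : ∀ x ∈ (P : Subgroup G), x * u = u * x
  · have hPT : (P : Subgroup G) ≤ T1 := fun x hx => hTT ⟨hx, mem_centralizer_singleton_iff.2 (huZ x hx)⟩
    have hyP : y ∈ (P : Subgroup G) := (P.is_maximal' hT1 hPT).le hy
    rcases four_cases hU4 hu hv ((mem_normalizer_iff.1 (hUn hyP) v).1 hv) hu1 hv1 hvu.symm with e | e | e | e
    · exact absurd (conj_eq_one_iff.1 e) hv1
    · exfalso
      refine hvu ?_
      calc v = y⁻¹ * (y * v * y⁻¹ * y) := by group
        _ = y⁻¹ * (y * u) := by rw [e, hyu]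
        _ = u := by group
    · exact Or.inl e
    · exact Or.inr e
  have hcyc : IsCyclic ↥((P : Subgroup G) ⊓ centralizer ((P : Subgroup G) : Set G)) := by
    by_contra hn
    exact huZ fun x hx => mem_centralizer_iff.1 (hUZ hn hu) x hx
  push Not at huZ
  obtain ⟨x0, hx0, hx0u⟩ := huZ
  set T := (P : Subgroup G) ⊓ centralizer ({u} : Set G) with hT
  -- a central involution of `P` in `U`
  obtain ⟨z, hzU, hz1, hzP⟩ : ∃ z ∈ U, z ≠ 1 ∧ ∀ x ∈ (P : Subgroup G), x * z = z * x := by
    haveI : (U.subgroupOf (P : Subgroup G)).Normal := (normal_subgroupOf_iff_le_normalizer hUP).2 hUn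
    have hne : U.subgroupOf (P : Subgroup G) ≠ ⊥ := fun e => by
      have hmem : (⟨u, hUP hu⟩ : (P : Subgroup G)) ∈ U.subgroupOf (P : Subgroup G) := mem_subgroupOf.2 hu
      rw [e, mem_bot] at hmem
      exact hu1 (congrArg Subtype.val hmem)
    obtain ⟨⟨z, hzP⟩, hz', hz1⟩ :=
      (bot_or_exists_ne_one _).resolve_left (H24.inf_center_ne_bot P.2 hne)
    exact ⟨z, hz'.1, fun e => hz1 (Subtype.ext e), fun x hx =>
      congrArg Subtype.val (mem_center_iff.1 hz'.2 ⟨x, hx⟩)⟩
  have hzu : u ≠ z := fun e => hx0u (e ▸ hzP x0 hx0)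
  have hUT : U ≤ T := fun x hx => ⟨hUP hx, mem_centralizer_singleton_iff.2 (hcomm x hx u hu)⟩
  have hTU : ∀ x ∈ T, ∀ w ∈ U, x * w = w * x := by
    rintro x ⟨hxP, hxu⟩ w hw
    have hxu' : x * u = u * x := mem_centralizer_singleton_iff.1 hxu
    rcases four_cases hU4 hu hzU hw hu1 hz1 hzu with rfl | rfl | rfl | rfl
    · simp
    · exact hxu'
    · exact hzP x hxP
    · exact (Commute.mul_right hxu' (hzP x hxP)).eq
  -- `T` has index at most two in `P`
  have hidx : Nat.card (P : Subgroup G) ≤ Nat.card T * 2 := by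
    have e2 : ∀ x ∈ (P : Subgroup G), x * u ≠ u * x → x * u * x⁻¹ = u * z := by
      intro x hx hne
      rcases four_cases hU4 hu hzU ((mem_normalizer_iff.1 (hUn hx) u).1 hu) hu1 hz1 hzu with e | e | e | e
      · exact absurd (conj_eq_one_iff.1 e) hu1
      · exact absurd (mul_inv_eq_iff_eq_mul.1 e) hne
      · exfalso
        refine hzu ?_
        calc u = x⁻¹ * (x * u * x⁻¹ * x) := by group
          _ = x⁻¹ * (x * z) := by rw [e, hzP x hx]
          _ = z := by group
      · exact e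
    have hsub : ((P : Subgroup G) : Set G) ⊆ (T : Set G) ∪ (fun t => x0 * t) '' (T : Set G) := by
      intro x hx
      by_cases hxu : x * u = u * x
      · exact Or.inl ⟨hx, mem_centralizer_singleton_iff.2 hxu⟩
      refine Or.inr ⟨x0⁻¹ * x, mem_inf.2 ⟨mul_mem (inv_mem hx0) hx, mem_centralizer_singleton_iff.2 ?_⟩,
        mul_inv_cancel_left _ _⟩
      calc x0⁻¹ * x * u = x0⁻¹ * (x * u * x⁻¹) * x := by group
        _ = x0⁻¹ * (x0 * u * x0⁻¹) * x := by rw [e2 x hx hxu, e2 x0 hx0 hx0u]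
        _ = u * (x0⁻¹ * x) := by group
    have := (Set.ncard_le_ncard hsub (Set.toFinite _)).trans (Set.ncard_union_le _ _)
    rw [Set.ncard_image_of_injective _ (mul_right_injective x0)] at this
    simp only [← Nat.card_coe_set_eq, SetLike.coe_sort_coe] at this
    omega
  by_cases hyT : y ∈ T
  · exact Or.inl (mul_inv_eq_iff_eq_mul.2 (hTU y hyT v hv))
  -- `T1` is a full Sylow subgroup and `T` has index two in it
  obtain ⟨Q, hQ⟩ := hT1.exists_le_sylow
  have hcardTT : Nat.card T * T.relIndex T1 = Nat.card T1 := by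
    rw [← relIndex_bot_left, ← relIndex_bot_left, relIndex_mul_relIndex _ _ _ bot_le hTT]
  have hQcard : Nat.card (Q : Subgroup G) = Nat.card (P : Subgroup G) := by
    rw [Q.card_eq_multiplicity, P.card_eq_multiplicity]
  have hi : (T.subgroupOf T1).index = 2 := by
    show T.relIndex T1 = 2
    have h1 : T.relIndex T1 ≠ 1 := fun e => hyT (relIndex_eq_one.1 e hy)
    have h2 : T.relIndex T1 ≠ 0 := FiniteIndex.index_ne_zero
    have h3 : T.relIndex T1 ≤ 2 := by
      refine Nat.le_of_mul_le_mul_left ?_ (Nat.card_pos (α := T))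
      rw [hcardTT]
      exact (Nat.le_of_dvd Nat.card_pos (card_dvd_of_le hQ)).trans (hQcard.trans_le hidx)
    omega
  have hQT1 : (Q : Subgroup G) = T1 := by
    refine (eq_of_le_of_card_ge hQ ?_).symm
    rw [hQcard, ← hcardTT]
    exact hidx.trans (le_of_eq (by rw [show T.relIndex T1 = 2 from hi]))
  have hcov : ∀ x ∈ T1, x ∈ T ∨ y⁻¹ * x ∈ T := by
    intro x hx
    by_cases hxT : x ∈ T
    · exact Or.inl hxT
    refine Or.inr ?_
    exact mem_subgroupOf.1 ((mul_mem_iff_of_index_two hi (a := (⟨y⁻¹, inv_mem hy⟩ : T1)) (b := ⟨x, hx⟩)).2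
      (iff_of_false (fun h => hyT (by simpa using inv_mem (mem_subgroupOf.1 h)))
        (fun h => hxT (mem_subgroupOf.1 h))))
  have hnorm : y ∈ normalizer (T : Set G) := by
    haveI : (T.subgroupOf T1).Normal := normal_of_index_eq_two hi
    exact (normal_subgroupOf_iff_le_normalizer hTT).1 inferInstance hy
  set v' := y * v * y⁻¹ with hv'
  set w := v * v' with hw
  have hv'T : ∀ x ∈ T, x * v' = v' * x := by
    intro x hx
    have h1 := hTU _ ((mem_normalizer_iff.1 (inv_mem hnorm) x).1 hx) v hv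
    rw [inv_inv] at h1
    calc x * v' = y * (y⁻¹ * x * y * v) * y⁻¹ := by rw [hv']; group
      _ = y * (v * (y⁻¹ * x * y)) * y⁻¹ := by rw [h1]
      _ = v' * x := by rw [hv']; group
  have hvv' : v * v' = v' * v := hv'T v (hUT hv)
  have hwT : ∀ x ∈ T, x * w = w * x := fun x hx =>
    (Commute.mul_right (hTU x hx v hv) (hv'T x hx)).eq
  have hw2 : w * w = 1 := by
    rw [hw]
    calc v * v' * (v * v') = v * (v' * v) * v' := by group
      _ = (v * v) * (v' * v') := by rw [← hvv']; group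
      _ = 1 := by
        rw [hsq v hv, one_mul, hv', show y * v * y⁻¹ * (y * v * y⁻¹) = y * (v * v) * y⁻¹ by group, hsq v hv]
        group
  rcases eq_or_ne w 1 with hw1 | hw1
  · refine Or.inl ?_
    rw [← inv_eq_of_mul_eq_one_right hw1, hinv v hv]
  have hyy : y * v' * y⁻¹ = v := by
    have h1 : y * y ∈ T := by
      rcases hcov (y * y) (mul_mem hy hy) with h | h
      · exact h
      · exact absurd (by simpa using h) hyT
    calc y * v' * y⁻¹ = (y * y) * v * (y * y)⁻¹ := by rw [hv']; group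
      _ = v := mul_inv_eq_iff_eq_mul.2 (hTU _ h1 v hv)
  have hwy : y * w = w * y := by
    refine mul_inv_eq_iff_eq_mul.1 ?_
    rw [hw, show y * (v * v') * y⁻¹ = (y * v * y⁻¹) * (y * v' * y⁻¹) by group, ← hv', hyy, hvv']
  have hwT1 : ∀ x ∈ T1, x * w = w * x := by
    intro x hx
    rcases hcov x hx with h | h
    · exact hwT x h
    · calc x * w = y * (y⁻¹ * x * w) := by group
        _ = y * (w * (y⁻¹ * x)) := by rw [hwT _ h]
        _ = (y * w) * (y⁻¹ * x) := by group
        _ = w * x := by rw [hwy]; group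
  obtain ⟨g, hg⟩ := MulAction.exists_smul_eq G Q P
  have hmove : ∀ a ∈ T1, (∀ x ∈ T1, x * a = a * x) →
      g * a * g⁻¹ ∈ (P : Subgroup G) ⊓ centralizer ((P : Subgroup G) : Set G) := by
    intro a ha hac
    refine ⟨?_, mem_centralizer_iff.2 fun b hb => ?_⟩
    · rw [← hg]; exact H61.conj_mem_cj (hQT1.ge ha)
    · have hb'' : b ∈ ((g • Q : Sylow 2 G) : Subgroup G) := hg.symm ▸ hb
      have hb' : g⁻¹ * b * g ∈ T1 := hQT1.le (H61.mem_cj.1 hb'')
      calc b * (g * a * g⁻¹) = g * (g⁻¹ * b * g * a) * g⁻¹ := by group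
        _ = g * (a * (g⁻¹ * b * g)) * g⁻¹ := by rw [hac _ hb']
        _ = g * a * g⁻¹ * b := by group
  have hwmem : w ∈ T1 := mul_mem (hTT (hUT hv)) (mul_mem (mul_mem hy (hTT (hUT hv))) (inv_mem hy))
  have e := involution_unique_of_isCyclic hcyc (hmove w hwmem hwT1)
    (hmove u (hTT (hUT hu)) fun x hx => mem_centralizer_singleton_iff.1 (hT1u hx))
    (by rw [show g * w * g⁻¹ * (g * w * g⁻¹) = g * (w * w) * g⁻¹ by group, hw2]; group)
    (by rw [show g * u * g⁻¹ * (g * u * g⁻¹) = g * (u * u) * g⁻¹ by group, hsq u hu]; group)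
    (fun e => hw1 (conj_eq_one_iff.1 e)) (fun e => hu1 (conj_eq_one_iff.1 e))
  have hwu : w = u := mul_left_cancel (mul_right_cancel e)
  refine Or.inr ?_
  rw [hcomm u hu v hv, ← hwu, hw, ← mul_assoc, hsq v hv, one_mul]

/-- A normal four-group of a Sylow 2-subgroup centralises what it normalises of odd order. -/
theorem four_group_centralizes (h2 : Cfsg.IsCharacteristicTwoType G)
    (P : Sylow 2 G) (U : Subgroup G) (hUP : U ≤ (P : Subgroup G))
    (hUn : (P : Subgroup G) ≤ normalizer (U : Set G)) (hU4 : IsKleinFour U)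
    (hUZ : ¬ IsCyclic ↥((P : Subgroup G) ⊓ centralizer ((P : Subgroup G) : Set G)) →
      U ≤ centralizer ((P : Subgroup G) : Set G))
    (K : Subgroup G) (hK : Odd (Nat.card K)) (hUK : U ≤ normalizer (K : Set G)) :
    U ≤ centralizer (K : Set G) := by
  haveI : Fact (Nat.Prime 2) := ⟨Nat.prime_two⟩
  haveI := hU4
  have hsq : ∀ x ∈ U, x * x = 1 := fun x hx =>
    congrArg Subtype.val (IsKleinFour.mul_self (⟨x, hx⟩ : U))
  have hinv : ∀ x ∈ U, x⁻¹ = x := fun x hx => inv_eq_of_mul_eq_one_right (hsq x hx)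
  have hcomm : ∀ x ∈ U, ∀ y ∈ U, x * y = y * x := fun x hx y hy => by
    rw [← hinv _ (mul_mem hx hy), mul_inv_rev, hinv x hx, hinv y hy]
  -- `U` centralises `C_K(u)` for every involution `u ∈ U`
  have hC : ∀ u ∈ U, u ≠ 1 → ∀ v ∈ U, ∀ k ∈ K, k * u = u * k → v * k = k * v := by
    intro u hu hu1 v hv k hk hku
    set C := centralizer ({u} : Set G) with hCdef
    have hu2 : orderOf u = 2 := orderOf_eq_prime (by rw [pow_two]; exact hsq u hu) hu1
    have hCN : normalizer (zpowers u : Set G) = C := by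
      refine le_antisymm (fun x hx => mem_centralizer_singleton_iff.2 ?_) ?_
      · have hmem : x * u * x⁻¹ ∈ zpowers u := (mem_normalizer_iff.1 hx u).1 (mem_zpowers u)
        obtain ⟨j, hj⟩ := Submonoid.mem_powers_iff _ _ |>.1 ((mem_powers_iff_mem_zpowers (x := u)).2 hmem)
        rcases Nat.even_or_odd j with ⟨i, rfl⟩ | ⟨i, rfl⟩
        · rw [← two_mul, pow_mul, pow_two, hsq u hu, one_pow] at hj
          exact absurd (conj_eq_one_iff.1 hj.symm) hu1
        · rw [pow_succ, pow_mul, pow_two, hsq u hu, one_pow, one_mul] at hj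
          exact mul_inv_eq_iff_eq_mul.1 hj.symm
      · rw [hCdef, ← centralizer_closure, ← zpowers_eq_closure]
        exact centralizer_le_normalizer _
    have hchar : centralizer (Cfsg.pCore 2 C : Set C) ≤ Cfsg.pCore 2 C := by
      have := h2.2 (zpowers u) (IsPGroup.of_card (n := 1) (by rw [Nat.card_zpowers, hu2, pow_one]))
        (fun e => hu1 (zpowers_eq_bot.1 e))
      rw [hCN] at this
      exact this
    have huC : u ∈ C := mem_centralizer_singleton_iff.2 rfl
    have hvC : ∀ x ∈ U, x ∈ C := fun x hx => mem_centralizer_singleton_iff.2 (hcomm x hx u hu)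
    have hT : IsPGroup 2 (((P : Subgroup G) ⊓ C).subgroupOf C) :=
      (P.2.to_le inf_le_left).comap_of_injective _ C.subtype_injective
    obtain ⟨S1, hS1⟩ := hT.exists_le_sylow
    have hvQ : (⟨v, hvC v hv⟩ : C) ∈ Cfsg.pCore 2 C := by
      haveI := H19.pCore_normal 2 C
      refine mem_pCore_two_of_central_chain hchar (u := ⟨u, huC⟩) ?_ (Subtype.ext (hsq u hu)) ?_
      · exact mem_center_iff.2 fun x => Subtype.ext (mem_centralizer_singleton_iff.1 x.2)
      intro q hq
      have h1 := four_group_moved P U hUP hUn hU4 hUZ hu hu1 hv (T1 := (S1 : Subgroup C).map C.subtype)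
        (S1.2.map _) (fun x hx => ⟨⟨x, hx.2⟩, hS1 (mem_subgroupOf.2 hx), rfl⟩)
        (map_subtype_le _) ⟨q, (H19.pCore_isPGroup 2).le_sylow_of_normal S1 hq, rfl⟩
      rcases h1 with h1 | h1
      · left
        refine Subtype.ext ?_
        show v * (q : G) * v⁻¹ = q
        change (q : G) * v * (q : G)⁻¹ = v at h1
        rw [mul_inv_eq_iff_eq_mul] at h1 ⊢
        exact h1.symm
      · right
        refine Subtype.ext ?_
        show v * (q : G) * v⁻¹ = u * q
        change (q : G) * v * (q : G)⁻¹ = u * v at h1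
        rw [mul_inv_eq_iff_eq_mul] at h1 ⊢
        calc v * (q : G) = u * (u * v * q) := by rw [← mul_assoc, ← mul_assoc, hsq u hu, one_mul]
          _ = u * (q * v) := by rw [← h1]
          _ = u * q * v := (mul_assoc _ _ _).symm
    have hkC : k ∈ C := mem_centralizer_singleton_iff.2 hku
    set c : C := ⟨v, hvC v hv⟩ * (⟨k, hkC⟩ * ⟨v, hvC v hv⟩⁻¹ * ⟨k, hkC⟩⁻¹) with hc
    have hcQ : c ∈ Cfsg.pCore 2 C :=
      mul_mem hvQ ((H19.pCore_normal 2 C).conj_mem _ (inv_mem hvQ) _)
    have hcval : (c : G) = v * k * v⁻¹ * k⁻¹ := by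
      show v * (k * v⁻¹ * k⁻¹) = _
      group
    have hcK : (c : G) ∈ K :=
      hcval ▸ mul_mem ((mem_normalizer_iff.1 (hUK hv) k).1 hk) (inv_mem hk)
    obtain ⟨j, hj⟩ := IsPGroup.iff_orderOf.1 (H19.pCore_isPGroup (G := C) 2) ⟨c, hcQ⟩
    rw [Subgroup.orderOf_mk] at hj
    have h1 : orderOf (c : G) ∣ Nat.card K := by
      rw [← Subgroup.orderOf_mk (c : G) hcK]; exact orderOf_dvd_natCard _
    rw [Subgroup.orderOf_coe, hj] at h1
    have hc1 : orderOf c = 1 := by
      rcases j with _ | j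
      · simpa using hj
      · exact absurd (dvd_trans (dvd_pow_self 2 j.succ_ne_zero) h1) hK.not_two_dvd_nat
    have hc2 : (c : G) = 1 := congrArg Subtype.val (orderOf_eq_one_iff.1 hc1)
    rw [hcval] at hc2
    exact mul_inv_eq_iff_eq_mul.1 (mul_inv_eq_one.1 hc2)
  -- generation
  obtain ⟨t, ht, ht1, y, hy, hy1, hyt⟩ : ∃ t ∈ U, t ≠ 1 ∧ ∃ y ∈ U, y ≠ 1 ∧ y ≠ t := by
    haveI : Fintype U := Fintype.ofFinite U
    classical
    have h4 : 2 < (Finset.univ : Finset U).card := by
      rw [Finset.card_univ, ← Nat.card_eq_fintype_card, IsKleinFour.card_four]; norm_num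
    obtain ⟨a, b, c, -, -, -, hab, hac, hbc⟩ := Finset.two_lt_card_iff.1 h4
    by_cases ha : a = 1
    · subst ha
      exact ⟨b, b.2, fun e => hab (Subtype.ext e).symm, c, c.2, fun e => hac (Subtype.ext e).symm,
        fun e => hbc (Subtype.ext e).symm⟩
    by_cases hb : b = 1
    · subst hb
      exact ⟨a, a.2, fun e => ha (Subtype.ext e), c, c.2, fun e => hbc (Subtype.ext e).symm,
        fun e => hac (Subtype.ext e).symm⟩
    exact ⟨a, a.2, fun e => ha (Subtype.ext e), b, b.2, fun e => hb (Subtype.ext e),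
      fun e => hab (Subtype.ext e).symm⟩
  have hty1 : t * y ≠ 1 := fun e => hyt (by rw [← inv_eq_of_mul_eq_one_right e, hinv t ht])
  intro v hv
  have hle : K ≤ centralizer ({v} : Set G) := by
    refine (H48.four_group_generation (hsq t ht) (fun x hx => (mem_normalizer_iff.1 (hUK ht) x).1 hx)
      (hsq y hy) (hcomm t ht y hy) (fun x hx => (mem_normalizer_iff.1 (hUK hy) x).1 hx) hK).trans ?_
    refine sup_le (sup_le ?_ ?_) ?_ <;> rintro k ⟨hk, hkc⟩ <;> refine mem_centralizer_singleton_iff.2 ?_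
    · exact (hC t ht ht1 v hv k hk (mem_centralizer_singleton_iff.1 hkc)).symm
    · exact (hC y hy hy1 v hv k hk (mem_centralizer_singleton_iff.1 hkc)).symm
    · exact (hC (t * y) (mul_mem ht hy) hty1 v hv k hk (mem_centralizer_singleton_iff.1 hkc)).symm
  exact mem_centralizer_iff.2 fun k hk => mem_centralizer_singleton_iff.1 (hle hk)

end Cfsg.Agent.H60
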